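import Cfsg.Agent.H10.J2T.Data
import Cfsg.Agent.H10.SuzT.Upper

/-!
# A simple group of order 604800 on 100 points (helper10)

The sub-presentation of the Suz presentation on `a, …, e` acts on 100 points; the image is
simple of order 604800.
-/

set_option autoImplicit false

namespace Cfsg.Agent.H10.J2T

open Cfsg.Agent.H35 Cfsg.Spor Cfsg.Agent.H10.SuzT

/-- the generators of the presented group -/
noncomputable abbrev gen5 : Suz.Gen → P5 := wgGen s5_rws s5_prels

theorem j2_ptOK : ∀ p, p < j2_pd.N → j2_pd.ptOK s5_rws s5_prels p = true := by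
  intro p hp
  have h : (j2_pd.ptOK s5_rws s5_prels p && j2_pd.orbOK j2_sw j2_roots p) = true :=
    allR_all _ _ 7 (by decide) j2_pall p hp
  exact (Bool.and_eq_true_iff.mp h).1

theorem j2_orbOK : ∀ p, p < j2_pd.N → j2_pd.orbOK j2_sw j2_roots p = true := by
  intro p hp
  have h : (j2_pd.ptOK s5_rws s5_prels p && j2_pd.orbOK j2_sw j2_roots p) = true :=
    allR_all _ _ 7 (by decide) j2_pall p hp
  exact (Bool.and_eq_true_iff.mp h).2

theorem j2_permOK : PermOK j2_pd s5_rws s5_prels j2_sw :=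
  ⟨by decide, suz_gens_all, j2_ptOK, j2_psub⟩

theorem dvd_100 : ∀ k ∈ Nat.divisors 100, 37 ≤ k → 25 ∣ k := by decide +kernel

/-- In a group whose order is not divisible by `p ^ (k + 1)`, a normal subgroup of order
divisible by `p ^ k` contains every element of order dividing `p`. -/
theorem mem_normal_of_pow_prime' {G : Type*} [Group G] [Finite G] (p : ℕ) [hp : Fact p.Prime]
    (k : ℕ) (hpp : ¬ p ^ (k + 1) ∣ Nat.card G) (N : Subgroup G) [N.Normal]
    (hN : p ^ k ∣ Nat.card N) (a : G) (ha : a ^ p = 1) : a ∈ N := by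
  have hcop : ¬ p ∣ Nat.card (G ⧸ N) := by
    intro h
    apply hpp
    rw [Subgroup.card_eq_card_quotient_mul_card_subgroup N, pow_succ, mul_comm (p ^ k) p]
    exact Nat.mul_dvd_mul h hN
  have h1 : (QuotientGroup.mk a : G ⧸ N) ^ p = 1 := by
    rw [← QuotientGroup.mk_pow, ha]; rfl
  have h2 : orderOf (QuotientGroup.mk a : G ⧸ N) ∣ p := orderOf_dvd_of_pow_eq_one h1
  have h3 : orderOf (QuotientGroup.mk a : G ⧸ N) ∣ Nat.card (G ⧸ N) := orderOf_dvd_natCard _
  rcases (Nat.dvd_prime hp.out).mp h2 with h | h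
  · rw [orderOf_eq_one_iff] at h
    exact (QuotientGroup.eq_one_iff a).mp h
  · rw [h] at h3
    exact absurd h3 hcop

theorem p5_cancel (x : Suz.Gen) (y : P5) : gen5 x * (gen5 x * y) = y := by
  rw [← mul_assoc, wg_inv, one_mul]

theorem p5_split (u : List Suz.Gen) (x : Suz.Gen) :
    gen5 x = uw gen5 u * uw gen5 (u.reverse ++ [x]) := by
  rw [uw_append, uw_reverse _ (wg_inv _ _), uw_singleton, mul_inv_cancel_left]

theorem p5_edge (x y : Suz.Gen) (m : ℕ) (h : (altW x y m, altW y x m) ∈ s5_rws) :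
    (gen5 x * gen5 y) ^ m = 1 := by
  have := wg_rws s5_rws s5_prels _ h
  rwa [uw_altW] at this

/-- the presented group on `a, …, e` has order 604800, is simple and acts faithfully on 100
points -/
theorem j2_main : ∃ ρ : P5 →* Equiv.Perm (Fin j2_pd.N), Function.Injective ρ ∧
    Nat.card P5 = 604800 ∧ IsSimpleGroup P5 := by
  have hN : 0 < j2_pd.N := by decide
  obtain ⟨ρ, hw, htr, hfix⟩ := perm_rep gen5 (wg_UP s5_rws s5_prels) j2_permOK
  have hfin : Finite P5 := p5_bound.1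
  have hinv : ∀ x, gen5 x * gen5 x = 1 := wg_inv _ _
  let b1 : Fin j2_pd.N := ⟨0, hN⟩
  let b2 : Fin j2_pd.N := ⟨1, by decide⟩
  let b3 : Fin j2_pd.N := ⟨19, by decide⟩
  let b4 : Fin j2_pd.N := ⟨2, by decide⟩
  -- the subgroup generated by the words fixing the first point
  have hHs : swGrp gen5 j2_sw ≤ stabOf ρ b1 := by
    unfold swGrp
    rw [Subgroup.closure_le]
    rintro g ⟨w, hwm, rfl⟩
    exact hfix w hwm
  have horb := orbits_eq_classes gen5 hinv j2_roots j2_orbOK ρ hw (swGrp gen5 j2_sw) rfl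
  let K2 : Subgroup P5 := ⊤ ⊓ stabOf ρ b1
  let K3 : Subgroup P5 := K2 ⊓ stabOf ρ b2
  let K4 : Subgroup P5 := K3 ⊓ stabOf ρ b3
  let K5 : Subgroup P5 := K4 ⊓ stabOf ρ b4
  have s1 : 100 * Nat.card K2 ≤ Nat.card (⊤ : Subgroup P5) := by
    have := level_step ρ ⊤ b1 Finset.univ (fun x _ => by
      obtain ⟨g, hg⟩ := htr x
      exact ⟨g, Subgroup.mem_top g, hg⟩)
    rw [Finset.card_univ, Fintype.card_fin] at this
    exact this
  have s2 : 63 * Nat.card K3 ≤ Nat.card K2 := by
    have := level_step ρ K2 b2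
      (Finset.univ.filter (fun p : Fin j2_pd.N => Nat.beq (j2_pd.cls p.val) 1 = true))
      (fun x hx => by
        rw [Finset.mem_filter, Nat.beq_eq] at hx
        obtain ⟨g, hg, e⟩ := (horb b2 x).mpr (by rw [hx.2]; exact j2_clsb2.symm)
        exact ⟨g, ⟨Subgroup.mem_top g, hHs hg⟩, e⟩)
    rw [card_filter_fin (fun i => Nat.beq (j2_pd.cls i) 1) j2_pd.N 7 (by decide)] at this
    rw [show cntR (fun i => Nat.beq (j2_pd.cls i) 1) j2_pd.N 7 0 = 63 from j2_clsA] at this
    exact this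
  have hK3 : ∀ w ∈ j2_ws3, uw gen5 w ∈ K3 := fun w hwm =>
    ⟨⟨Subgroup.mem_top _, fixOK_mem gen5 ρ hw j2_ws3 _ j2_fix3 w hwm b1
      (by show (0 : ℕ) ∈ _; decide)⟩,
      fixOK_mem gen5 ρ hw j2_ws3 _ j2_fix3 w hwm b2 (by decide)⟩
  have s3 : 32 * Nat.card K4 ≤ Nat.card K3 := by
    have := level_step ρ K3 b3
      (Finset.univ.filter (fun p : Fin j2_pd.N => Nat.ble 1 (fld 16 (j2_lab p.val) 0) = true))
      (fun x hx => by
        rw [Finset.mem_filter, Nat.ble_eq] at hx
        exact lvl_orbit gen5 ρ hw K3 j2_lab 0 j2_ws3 b3 hK3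
          (allR_all _ _ 7 (by decide) j2_lvl3) _ x rfl hx.2)
    rw [card_filter_fin (fun i => Nat.ble 1 (fld 16 (j2_lab i) 0)) j2_pd.N 7 (by decide)] at this
    rw [show cntR (fun i => Nat.ble 1 (fld 16 (j2_lab i) 0)) j2_pd.N 7 0 = 32 from j2_cnt3] at this
    exact this
  have hK4 : ∀ w ∈ j2_ws4, uw gen5 w ∈ K4 := fun w hwm =>
    ⟨⟨⟨Subgroup.mem_top _, fixOK_mem gen5 ρ hw j2_ws4 _ j2_fix4 w hwm b1
      (by show (0 : ℕ) ∈ _; decide)⟩,
      fixOK_mem gen5 ρ hw j2_ws4 _ j2_fix4 w hwm b2 (by decide)⟩,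
      fixOK_mem gen5 ρ hw j2_ws4 _ j2_fix4 w hwm b3 (by decide)⟩
  have s4 : 3 * Nat.card K5 ≤ Nat.card K4 := by
    have := level_step ρ K4 b4
      (Finset.univ.filter (fun p : Fin j2_pd.N => Nat.ble 1 (fld 16 (j2_lab p.val) 2) = true))
      (fun x hx => by
        rw [Finset.mem_filter, Nat.ble_eq] at hx
        exact lvl_orbit gen5 ρ hw K4 j2_lab 2 j2_ws4 b4 hK4
          (allR_all _ _ 7 (by decide) j2_lvl4) _ x rfl hx.2)
    rw [card_filter_fin (fun i => Nat.ble 1 (fld 16 (j2_lab i) 2)) j2_pd.N 7 (by decide)] at this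
    rw [show cntR (fun i => Nat.ble 1 (fld 16 (j2_lab i) 2)) j2_pd.N 7 0 = 3 from j2_cnt4] at this
    exact this
  have hK5pos : 0 < Nat.card K5 := Nat.card_pos
  have htop : Nat.card (⊤ : Subgroup P5) = Nat.card P5 := Subgroup.card_top
  have hub := p5_bound.2
  have hcard : Nat.card P5 = 604800 := by omega
  have hK5 : Nat.card K5 = 1 := by omega
  have hinj : ∀ g : P5, ρ g = 1 → g = 1 := by
    intro g hg
    have hmem : g ∈ K5 := by
      have hfix' : ∀ b : Fin j2_pd.N, g ∈ stabOf ρ b := fun b => by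
        rw [mem_stabOf, hg]; rfl
      exact ⟨⟨⟨⟨Subgroup.mem_top g, hfix' b1⟩, hfix' b2⟩, hfix' b3⟩, hfix' b4⟩
    have hbot : K5 = ⊥ := Subgroup.card_eq_one.mp hK5
    rw [hbot, Subgroup.mem_bot] at hmem
    exact hmem
  refine ⟨ρ, (injective_iff_map_eq_one ρ).mpr hinj, hcard, ?_⟩
  -- elements of order 5
  have h5 : ∀ u ∈ j2_us, uw gen5 u ^ 5 = 1 := by
    intro u hu
    apply hinj
    have hmem : (List.replicate 5 u).flatten ∈ j2_p5 := by
      rw [j2_p5def]; exact List.mem_map.mpr ⟨u, hu, rfl⟩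
    have hall := allR_all _ _ 7 (by decide) j2_p5ok
    have hinv' : (ρ (uw gen5 (List.replicate 5 u).flatten))⁻¹ = 1 := by
      ext p
      have h1 := hall p.val p.isLt
      rw [List.all_eq_true] at h1
      have h2 := h1 _ hmem
      rw [Nat.beq_eq, hw] at h2
      rw [h2]; rfl
    rw [inv_eq_one, uw_rep] at hinv'
    exact hinv'
  have hnp : ¬ 5 ^ (2 + 1) ∣ Nat.card P5 := by rw [hcard]; norm_num
  have : Fact (Nat.Prime 5) := ⟨by norm_num⟩
  have hnt : Nontrivial P5 := by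
    rw [← Finite.one_lt_card_iff_nontrivial, hcard]; norm_num
  refine @IsSimpleGroup.mk _ _ hnt ?_
  intro N hNn
  have hm : ∀ ω : Fin j2_pd.N, ω ≠ b1 → ∃ O : Finset (Fin j2_pd.N), 36 ≤ O.card ∧ b1 ∉ O ∧
      ∀ x ∈ O, ∃ h ∈ stabOf ρ b1, ρ h ω = x := by
    intro ω hω
    refine ⟨Finset.univ.filter (fun p : Fin j2_pd.N =>
      Nat.beq (j2_pd.cls p.val) (j2_pd.cls ω.val) = true), ?_, ?_, ?_⟩
    · rw [card_filter_fin (fun i => Nat.beq (j2_pd.cls i) (j2_pd.cls ω.val)) j2_pd.N 7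
        (by decide)]
      have hc := allR_all _ _ 7 (by decide) j2_clsall ω.val ω.isLt
      rw [Bool.or_eq_true, Bool.or_eq_true, Nat.beq_eq, Nat.beq_eq, Nat.beq_eq] at hc
      rcases hc with hc | hc | hc
      · exact absurd (Fin.ext hc) hω
      · rw [hc, show cntR (fun i => Nat.beq (j2_pd.cls i) 1) j2_pd.N 7 0 = 63 from j2_clsA]
        norm_num
      · rw [hc, show cntR (fun i => Nat.beq (j2_pd.cls i) 2) j2_pd.N 7 0 = 36 from j2_clsB]
    · intro h0
      rw [Finset.mem_filter, Nat.beq_eq] at h0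
      have hc := allR_all _ _ 7 (by decide) j2_clsall ω.val ω.isLt
      rw [Bool.or_eq_true, Bool.or_eq_true, Nat.beq_eq, Nat.beq_eq, Nat.beq_eq] at hc
      have h00 : j2_pd.cls (b1 : Fin j2_pd.N).val = 0 := j2_cls0
      obtain ⟨_, h0'⟩ := h0
      rw [h00] at h0'
      rcases hc with hc | hc | hc
      · exact hω (Fin.ext hc)
      · rw [hc] at h0'; exact absurd h0' (by decide)
      · rw [hc] at h0'; exact absurd h0' (by decide)
    · intro x hx
      rw [Finset.mem_filter, Nat.beq_eq] at hx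
      obtain ⟨g, hg, e⟩ := (horb ω x).mpr hx.2
      exact ⟨g, hHs hg, e⟩
  rcases normal_le_or_relIndex ρ b1 htr 36 hm N with hle | ⟨hk1, hk2, hk3⟩
  · left
    rw [Subgroup.eq_bot_iff_forall]
    intro n hn
    apply hinj
    ext ω
    obtain ⟨g, rfl⟩ := htr ω
    have h1 : g⁻¹ * n * g ∈ N := by
      have := hNn.conj_mem n hn g⁻¹
      rwa [inv_inv] at this
    have h2 : ρ (g⁻¹ * n * g) b1 = b1 := hle h1
    have h3 : ρ n (ρ g b1) = ρ g (ρ (g⁻¹ * n * g) b1) := by
      rw [← Equiv.Perm.mul_apply, ← Equiv.Perm.mul_apply, ← map_mul, ← map_mul]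
      congr 2
      group
    rw [h3, h2]; rfl
  · right
    have hk2' : (stabOf ρ b1).relIndex N ∣ 100 := hk2
    have h25N : 5 ^ 2 ∣ Nat.card N :=
      (dvd_100 _ (Nat.mem_divisors.mpr ⟨hk2', by norm_num⟩) hk1).trans hk3
    have hmemN : ∀ u ∈ j2_us, uw gen5 u ∈ N := fun u hu =>
      mem_normal_of_pow_prime' 5 2 hnp N h25N _ (h5 u hu)
    have ha : gen5 .a ∈ N := by
      rw [p5_split [.b, .c, .b, .a, .b] .a]
      exact N.mul_mem (hmemN _ (by decide)) (hmemN _ (by decide))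
    have hb : gen5 .b ∈ N :=
      mem_normal_of_odd_edge N _ _ 2 (hinv .b) (p5_edge .a .b 5 (by decide)) ha
    have hc : gen5 .c ∈ N :=
      mem_normal_of_odd_edge N _ _ 1 (hinv .c) (p5_edge .b .c 3 (by decide)) hb
    -- `e` from the long relator
    have he : gen5 .e ∈ N := by
      have hrel := wg_prels s5_rws s5_prels _ (show ([.b, .c, .d, .c, .d, .b, .c, .d, .c, .d,
        .b, .c, .d, .c, .d, .b, .c, .d, .c, .d, .b, .c, .d, .c, .d, .e], 3, 11) ∈ s5_prels by
          decide)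
      have h2 := congrArg (QuotientGroup.mk' N) hrel
      rw [map_pow, uw_map, map_one] at h2
      have hb' : (QuotientGroup.mk' N) (gen5 .b) = 1 := (QuotientGroup.eq_one_iff _).mpr hb
      have hc' : (QuotientGroup.mk' N) (gen5 .c) = 1 := (QuotientGroup.eq_one_iff _).mpr hc
      have hdd : (QuotientGroup.mk' N) (gen5 .d) * (QuotientGroup.mk' N) (gen5 .d) = 1 := by
        rw [← map_mul, hinv, map_one]
      have hee : (QuotientGroup.mk' N) (gen5 .e) * (QuotientGroup.mk' N) (gen5 .e) = 1 := by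
        rw [← map_mul, hinv, map_one]
      have hcancel : ∀ y : P5 ⧸ N, (QuotientGroup.mk' N) (gen5 .d) *
          ((QuotientGroup.mk' N) (gen5 .d) * y) = y := fun y => by
        rw [← mul_assoc, hdd, one_mul]
      simp only [uw, List.map, List.prod_cons, List.prod_nil, hb', hc', one_mul, mul_one,
        hcancel] at h2
      rw [pow_succ, pow_two, hee, one_mul] at h2
      exact (QuotientGroup.eq_one_iff _).mp h2
    have hd : gen5 .d ∈ N :=
      mem_normal_of_odd_edge N _ _ 1 (hinv .d) (p5_edge .e .d 3 (by decide)) he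
    have hf : gen5 .f ∈ N := by
      have := wg_rws s5_rws s5_prels ([.f], []) (by decide)
      simp only [List.reverse_nil, List.append_nil, uw_singleton] at this
      rw [show gen5 .f = 1 from this]; exact N.one_mem
    have hg : gen5 .g ∈ N := by
      have := wg_rws s5_rws s5_prels ([.g], []) (by decide)
      simp only [List.reverse_nil, List.append_nil, uw_singleton] at this
      rw [show gen5 .g = 1 from this]; exact N.one_mem
    rw [eq_top_iff, ← wg_closure s5_rws s5_prels, Subgroup.closure_le]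
    rintro _ ⟨x, rfl⟩
    cases x <;> assumption

end Cfsg.Agent.H10.J2T
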